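import Mathlib
import Cfsg.Prelude.Def_OddOrderLocal

set_option autoImplicit false

/-!
# BG Lemma 14.3 (S1432): statements of the pieces

Core claim `ClaimC`: a `κ(M)`-element `x'` of prime order of `M` centralizing `x ≠ 1` in `M_σ`
forces `C_G(x) ≤ M`.  Otherwise `N ⊇ C_G(x)` as in BG 14.5, `x' ∈ M ∩ N` acts on the elementary
abelian `B ≤ M ∩ N` of order `p²` with `C_B(x') = ⟨x⟩`, a Frobenius argument on `C_{N_σ}(x)` gives
`C_{N_σ}(x') ≠ 1`, so `q ∈ κ(N)` commutes with the `τ₂(N)`-element `x`, against S1353.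
-/

namespace Cfsg.Agent.Lib.Helper73.BG143Stmt

universe u

/-- The statement of S1353 (`C_U(k) = 1` for `k ≠ 1` in `K`). -/
def H1353 : Prop :=
  ∀ {G : Type u} [Group G] [Finite G], Cfsg.IsMinSimpleOddOrder G →
  ∀ (M : Subgroup G), IsCoatom M → ∀ (K U : Subgroup G), Cfsg.IsSigmaDecomposition M K U →
    ∀ k ∈ K, k ≠ 1 → U ⊓ Subgroup.centralizer ({k} : Set G) = ⊥

/-- The configuration: `x ∈ M_σ` of prime order `p`, `x' ∈ C_M(x)` of prime order `q ∈ κ(M)`,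
`N` the maximal subgroup over `C_G(x) ⊄ M`, `B ≤ M ∩ N` elementary abelian of order `p²`. -/
structure KCfg {G : Type u} [Group G] (M N B : Subgroup G) (x x' : G) (p q : ℕ) : Prop where
  hM : IsCoatom M
  hN : IsCoatom N
  pp : p.Prime
  qp : q.Prime
  xs : x ∈ Cfsg.sigmaCore M
  xo : orderOf x = p
  pM : p ∈ Cfsg.sigma M
  x'M : x' ∈ M
  x'o : orderOf x' = q
  comm : x' * x = x * x'
  qk : q ∈ Cfsg.kappa M
  cN : Subgroup.centralizer ({x} : Set G) ≤ N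
  uniq : ∀ L : Subgroup G, IsCoatom L → Subgroup.centralizer ({x} : Set G) ≤ L → L = N
  p2 : p ∈ Cfsg.tau2 N
  qN : q ∉ Cfsg.sigma N
  compl : Cfsg.IsComplIn (M ⊓ N) (Cfsg.sigmaCore N) N
  nil : Group.IsNilpotent (Cfsg.sigmaCore N)
  Rne : Cfsg.sigmaCore N ⊓ Subgroup.centralizer ({x} : Set G) ≠ ⊥
  BE : B ≤ M ⊓ N
  Bel : Cfsg.IsElementaryAbelian p B
  Bc : Nat.card B = p ^ 2
  xB : x ∈ B
  nB : M ⊓ N ≤ Subgroup.normalizer (B : Set G)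
  cB : Cfsg.sigmaCore N ⊓ Subgroup.centralizer (B : Set G) = ⊥

/-- FROB (pure): `X₂ ⋊ Q` acts on the abelian `V ≠ 1`, `C_V(X₂) = 1`, every `c ≠ 1` of `Q` is
fixed-point-free on `X₂`, `(|V|, |X₂|) = 1`: then `C_V(Q) ≠ 1`. -/
def Frob : Prop :=
  ∀ {G : Type u} [Group G] [Finite G] (V X₂ Q : Subgroup G),
    IsMulCommutative V → V ≠ ⊥ →
    X₂ ≤ Subgroup.normalizer (V : Set G) → Q ≤ Subgroup.normalizer (V : Set G) →
    Q ≤ Subgroup.normalizer (X₂ : Set G) →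
    (Nat.card V).Coprime (Nat.card X₂) →
    V ⊓ Subgroup.centralizer (X₂ : Set G) = ⊥ →
    (∀ c ∈ Q, c ≠ 1 → ∀ a ∈ X₂, c * a = a * c → a = 1) →
    V ⊓ Subgroup.centralizer (Q : Set G) ≠ ⊥

/-- SPLIT (pure): `x'` of prime order `q ≠ p` normalizes `B ≅ E_{p²}`, centralizes `x ∈ B` of
order `p`, but not `B`: `B = X₂ × ⟨x⟩` with `X₂` of order `p` normalized by `⟨x'⟩`, every
non-identity element of `⟨x'⟩` fixed-point-free on `X₂`. -/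
def Split : Prop :=
  ∀ {G : Type u} [Group G] [Finite G] (B : Subgroup G) (x x' : G) (p q : ℕ),
    p.Prime → q.Prime → p ≠ q → Cfsg.IsElementaryAbelian p B → Nat.card B = p ^ 2 →
    x ∈ B → orderOf x = p → orderOf x' = q → x' ∈ Subgroup.normalizer (B : Set G) →
    x' * x = x * x' → (¬ ∀ b ∈ B, x' * b = b * x') →
    ∃ X₂ : Subgroup G, X₂ ≤ B ∧ Nat.card X₂ = p ∧
      Subgroup.zpowers x' ≤ Subgroup.normalizer (X₂ : Set G) ∧
      (∀ c ∈ Subgroup.zpowers x', c ≠ 1 → ∀ a ∈ X₂, c * a = a * c → a = 1) ∧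
      B ≤ X₂ ⊔ Subgroup.zpowers x

/-- ZNIL (pure): a nilpotent subgroup `R ≠ 1` has an abelian subgroup `V ≠ 1` normalized by
`N_G(R)` (its centre). -/
def ZNil : Prop :=
  ∀ {G : Type u} [Group G] [Finite G] (R : Subgroup G), Group.IsNilpotent R → R ≠ ⊥ →
    ∃ V : Subgroup G, V ≤ R ∧ V ≠ ⊥ ∧ IsMulCommutative V ∧
      ∀ g ∈ Subgroup.normalizer (R : Set G), g ∈ Subgroup.normalizer (V : Set G)

/-- MEMKAPPA: `q ∉ σ(N)`, `N` of `q`-rank `≤ 1`, an element of order `q` of `N` centralizing a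
non-identity element of `N_σ`: `q ∈ κ(N)`. -/
def MemKappa : Prop :=
  ∀ {G : Type u} [Group G] [Finite G], Cfsg.IsMinSimpleOddOrder G →
  ∀ (N : Subgroup G) (q : ℕ) (z y : G), q.Prime → q ∉ Cfsg.sigma N → Cfsg.PRankLE q 1 N →
    z ∈ N → orderOf z = q → y ∈ Cfsg.sigmaCore N → y ≠ 1 → z * y = y * z → q ∈ Cfsg.kappa N

/-- R2: a prime outside `σ(L)` has rank `≤ 2` in `L`. -/
def R2 : Prop :=
  ∀ {G : Type u} [Group G] [Finite G], Cfsg.IsMinSimpleOddOrder G →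
  ∀ (L : Subgroup G), IsCoatom L → ∀ p : ℕ, p.Prime → p ∉ Cfsg.sigma L → Cfsg.PRankLE p 2 L

/-- HALLK: a Hall `κ(N)`-subgroup exists. -/
def HallK : Prop :=
  ∀ {G : Type u} [Group G] [Finite G], Cfsg.IsMinSimpleOddOrder G →
  ∀ (N : Subgroup G), IsCoatom N → ∃ K : Subgroup G, Cfsg.IsPiHallOf (Cfsg.kappa N) K N

/-- KCYC: if `τ₂(N) ≠ ∅`, every Hall `κ(N)`-subgroup of `N` is cyclic. -/
def KCyc : Prop :=
  ∀ {G : Type u} [Group G] [Finite G], Cfsg.IsMinSimpleOddOrder G →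
  ∀ (N : Subgroup G), IsCoatom N → ∀ p : ℕ, p ∈ Cfsg.tau2 N →
  ∀ K : Subgroup G, Cfsg.IsPiHallOf (Cfsg.kappa N) K N → IsCyclic K

/-- NOKT: an element of prime order `q ∈ κ(N)` does not commute with an element of prime order
`p ∈ τ₂(N)`. -/
def NoKT : Prop :=
  ∀ {G : Type u} [Group G] [Finite G], Cfsg.IsMinSimpleOddOrder G →
  ∀ (N : Subgroup G), IsCoatom N → ∀ (p q : ℕ) (x x' : G), p ∈ Cfsg.tau2 N → q ∈ Cfsg.kappa N →
    x ∈ N → x' ∈ N → orderOf x = p → orderOf x' = q → x' * x = x * x' → False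

/-- SETUP: the configuration exists. -/
def Setup : Prop :=
  ∀ {G : Type u} [Group G] [Finite G], Cfsg.IsMinSimpleOddOrder G →
  ∀ (M : Subgroup G), IsCoatom M → ∀ x x' : G, x ∈ Cfsg.sigmaCore M → (orderOf x).Prime →
    x' ∈ M → x' * x = x * x' → (orderOf x').Prime → orderOf x' ∈ Cfsg.kappa M →
    ¬ Subgroup.centralizer ({x} : Set G) ≤ M →
    ∃ N B : Subgroup G, KCfg M N B x x' (orderOf x) (orderOf x')

/-- CYC: in the configuration `N` has `q`-rank `≤ 1`. -/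
def Cyc : Prop :=
  ∀ {G : Type u} [Group G] [Finite G], Cfsg.IsMinSimpleOddOrder G →
  ∀ (M N B : Subgroup G) (x x' : G) (p q : ℕ), KCfg M N B x x' p q → Cfsg.PRankLE q 1 N

/-- NCENT: in the configuration `x'` does not centralize `B`. -/
def NCent : Prop :=
  ∀ {G : Type u} [Group G] [Finite G], Cfsg.IsMinSimpleOddOrder G →
  ∀ (M N B : Subgroup G) (x x' : G) (p q : ℕ), KCfg M N B x x' p q →
    ¬ ∀ b ∈ B, x' * b = b * x'

/-- CLAIMC. -/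
def ClaimC : Prop :=
  ∀ {G : Type u} [Group G] [Finite G], Cfsg.IsMinSimpleOddOrder G →
  ∀ (M : Subgroup G), IsCoatom M → ∀ x x' : G, x ∈ Cfsg.sigmaCore M → x ≠ 1 →
    x' ∈ M → x' * x = x * x' → (orderOf x').Prime → orderOf x' ∈ Cfsg.kappa M →
    Subgroup.centralizer ({x} : Set G) ≤ M

/-- PRIMES: an element of prime order `t ∉ σ(M)` of `M` centralizing `x ≠ 1` in `M_σ` has
`t ∈ κ(M) ∪ τ₂(M)`. -/
def Primes : Prop :=
  ∀ {G : Type u} [Group G] [Finite G], Cfsg.IsMinSimpleOddOrder G →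
  ∀ (M : Subgroup G), IsCoatom M → ∀ (x z : G) (t : ℕ), x ∈ Cfsg.sigmaCore M → x ≠ 1 →
    z ∈ M → z * x = x * z → orderOf z = t → t.Prime → t ∉ Cfsg.sigma M →
    t ∈ Cfsg.kappa M ∨ t ∈ Cfsg.tau2 M

/-- LEX: for `p ∈ τ₂(M)` a maximal `L` with `p ∈ σ(L)` and `L ∩ M` a complement of `M_σ`. -/
def LEx : Prop :=
  ∀ {G : Type u} [Group G] [Finite G], Cfsg.IsMinSimpleOddOrder G →
  ∀ (M : Subgroup G), IsCoatom M → ∀ p : ℕ, p ∈ Cfsg.tau2 M →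
    ∃ L : Subgroup G, IsCoatom L ∧ L ≠ M ∧ p ∈ Cfsg.sigma L ∧
      Cfsg.IsComplIn (L ⊓ M) (Cfsg.sigmaCore M) M ∧
      ∀ X₁ : Subgroup G, X₁ ≤ L ⊓ M → Nat.card X₁ = p →
        Cfsg.sigmaCore M ⊓ Subgroup.centralizer (X₁ : Set G) ≠ ⊥ →
        Subgroup.centralizer (X₁ : Set G) ≤ M

/-- STEP: with `L` as in `LEx`, `y' ∈ L ∩ M` centralizing `x ≠ 1` in `M_σ`, `p ∣ |y'|`: every
prime `q` of `|y'|` is in `σ(L) ∩ τ₂(M)`. -/
def Step : Prop :=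
  ∀ {G : Type u} [Group G] [Finite G], Cfsg.IsMinSimpleOddOrder G →
  ∀ (M L : Subgroup G), IsCoatom M → IsCoatom L → L ≠ M → ∀ p : ℕ, p ∈ Cfsg.sigma L →
    p ∈ Cfsg.tau2 M → Cfsg.IsComplIn (L ⊓ M) (Cfsg.sigmaCore M) M →
    (∀ X₁ : Subgroup G, X₁ ≤ L ⊓ M → Nat.card X₁ = p →
        Cfsg.sigmaCore M ⊓ Subgroup.centralizer (X₁ : Set G) ≠ ⊥ →
        Subgroup.centralizer (X₁ : Set G) ≤ M) →
    ∀ x y' : G, x ∈ Cfsg.sigmaCore M → x ≠ 1 → y' ∈ L ⊓ M → y' * x = x * y' →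
    p ∣ orderOf y' → ∀ q : ℕ, q.Prime → q ∣ orderOf y' → q ∈ Cfsg.sigma L ∧ q ∈ Cfsg.tau2 M

/-- S1432. -/
def S32 : Prop :=
  ∀ {G : Type u} [Group G] [Finite G], Cfsg.IsMinSimpleOddOrder G →
  ∀ (M : Subgroup G), IsCoatom M → ∀ x : G, x ∈ Cfsg.sigmaCore M → x ≠ 1 → ∀ x' : G,
    x' ∈ M ⊓ Subgroup.centralizer ({x} : Set G) → x' ≠ 1 →
    (∀ p : ℕ, p.Prime → p ∣ orderOf x' → p ∉ Cfsg.sigma M) →
    ((∀ p : ℕ, p.Prime → p ∣ orderOf x' → p ∈ Cfsg.kappa M) ∧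
        Subgroup.centralizer ({x} : Set G) ≤ M) ∨
      ((∀ p : ℕ, p.Prime → p ∣ orderOf x' → p ∈ Cfsg.tau2 M) ∧
        (∃ L : Subgroup G, IsCoatom L ∧ ∀ p : ℕ, p.Prime → p ∣ orderOf x' → p ∈ Cfsg.sigma L) ∧
        (Subgroup.centralizer ({x'} : Set G) ≤ M ∧
          ∀ L : Subgroup G, IsCoatom L → Subgroup.centralizer ({x'} : Set G) ≤ L → L = M))

end Cfsg.Agent.Lib.Helper73.BG143Stmt
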