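import Mathlib
import Cfsg.Prelude.Def_OddOrderLocal

set_option autoImplicit false

/-!
# BG 14.4-14.6 package (S1374, S1375, S1377, S1433): statements of the pieces

Setting: `G` minimal simple of odd order, `M` maximal, `x ∈ M_σ`, `x ≠ 1`.  If `C_G(x) ⊄ M`
there is a maximal `N ⊇ C_G(x)` with `M ∩ N` a complement of `N_σ` in `N`, and
`C_G(x) = C_{N_σ}(x) ⋊ C_M(x)`.
-/

namespace Cfsg.Agent.Lib.Helper73.BG14Stmt

universe u

/-- CORE-A: `X ≤ M` of order `p ∈ σ(M)` with `C_G(X) ⊄ M`: a maximal `N ⊇ N_G(X)`, not conjugate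
to `M`, with `p ∈ τ₂(N)` and an elementary abelian `B ≤ M ∩ N` of order `p²`. -/
def CoreA : Prop :=
  ∀ {G : Type u} [Group G] [Finite G], Cfsg.IsMinSimpleOddOrder G →
  ∀ (M : Subgroup G), IsCoatom M → ∀ (p : ℕ), p ∈ Cfsg.sigma M →
  ∀ X : Subgroup G, X ≤ M → Nat.card X = p → ¬ Subgroup.centralizer (X : Set G) ≤ M →
  ∃ N : Subgroup G, IsCoatom N ∧ Subgroup.normalizer (X : Set G) ≤ N ∧
    (∀ g : G, N ≠ M.map (MulAut.conj g).toMonoidHom) ∧ p ∈ Cfsg.tau2 N ∧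
    ∃ B : Subgroup G, B ≤ M ⊓ N ∧ Cfsg.IsElementaryAbelian p B ∧ Nat.card B = p ^ 2

/-- CORE-B: `M ≠ N` maximal, `p ∈ σ(M) ∩ τ₂(N)`, `B ≤ M ∩ N` elementary abelian of order `p²`:
`M ∩ N` is a complement of `N_σ` in `N`, `N_σ` is nilpotent, and `N` is the only maximal subgroup
over `C_G(X)` for `X ≤ M ∩ N` of order `p` with `C_{N_σ}(X) ≠ 1`. -/
def CoreB : Prop :=
  ∀ {G : Type u} [Group G] [Finite G], Cfsg.IsMinSimpleOddOrder G →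
  ∀ (M N : Subgroup G), IsCoatom M → IsCoatom N → N ≠ M →
  ∀ (p : ℕ), p ∈ Cfsg.sigma M → p ∈ Cfsg.tau2 N →
  ∀ B : Subgroup G, B ≤ M ⊓ N → Cfsg.IsElementaryAbelian p B → Nat.card B = p ^ 2 →
    Cfsg.IsComplIn (M ⊓ N) (Cfsg.sigmaCore N) N ∧ Group.IsNilpotent (Cfsg.sigmaCore N) ∧
    Cfsg.sigmaCore N ⊓ Subgroup.centralizer (B : Set G) = ⊥ ∧
    ∀ X : Subgroup G, X ≤ M ⊓ N → Nat.card X = p →
      Cfsg.sigmaCore N ⊓ Subgroup.centralizer (X : Set G) ≠ ⊥ →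
      (Subgroup.centralizer (X : Set G) ≤ N ∧
        ∀ L : Subgroup G, IsCoatom L → Subgroup.centralizer (X : Set G) ≤ L → L = N)

/-- Centralizers in a semidirect product: `N = A S`, `A ∩ S = 1`, `S ⊴ N`, `x ∈ A`. -/
def CentDecomp : Prop :=
  ∀ {G : Type u} [Group G] (A S N : Subgroup G), Cfsg.IsComplIn A S N →
    N ≤ Subgroup.normalizer (S : Set G) → ∀ x ∈ A, ∀ c ∈ N, c * x = x * c →
    ∃ a ∈ A, ∃ b ∈ S, c = a * b ∧ a * x = x * a ∧ b * x = x * b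

/-- `τ₂` is invariant under conjugation. -/
def Tau2Conj : Prop :=
  ∀ {G : Type u} [Group G] [Finite G] (M : Subgroup G) (g : G) (q : ℕ),
    q ∈ Cfsg.tau2 M → q ∈ Cfsg.tau2 (M.map (MulAut.conj g).toMonoidHom)

/-- GEN (BG 14.5 core): `x ∈ M_σ`, `x ≠ 1`, `C_G(x) ⊄ M`. -/
def Gen : Prop :=
  ∀ {G : Type u} [Group G] [Finite G], Cfsg.IsMinSimpleOddOrder G →
  ∀ (M : Subgroup G), IsCoatom M → ∀ x : G, x ∈ Cfsg.sigmaCore M → x ≠ 1 →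
  ¬ Subgroup.centralizer ({x} : Set G) ≤ M →
  ∃ N : Subgroup G, IsCoatom N ∧ Subgroup.centralizer ({x} : Set G) ≤ N ∧
    (∀ L : Subgroup G, IsCoatom L → Subgroup.centralizer ({x} : Set G) ≤ L → L = N) ∧
    (∀ g : G, N ≠ M.map (MulAut.conj g).toMonoidHom) ∧
    Cfsg.IsComplIn (M ⊓ N) (Cfsg.sigmaCore N) N ∧ Group.IsNilpotent (Cfsg.sigmaCore N) ∧
    (∀ q : ℕ, q.Prime → q ∣ orderOf x → q ∈ Cfsg.tau2 N) ∧
    Cfsg.IsComplIn (M ⊓ Subgroup.centralizer ({x} : Set G))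
      (Cfsg.sigmaCore N ⊓ Subgroup.centralizer ({x} : Set G)) (Subgroup.centralizer ({x} : Set G))

/-- `N_σ` nilpotent ⇒ `N_σ = N_F`. -/
def FH : Prop :=
  ∀ {G : Type u} [Group G] [Finite G], Cfsg.IsMinSimpleOddOrder G →
  ∀ (N : Subgroup G), IsCoatom N → Group.IsNilpotent (Cfsg.sigmaCore N) →
    Cfsg.sigmaCore N = Cfsg.fittingHallOf N

/-- A `τ₂(N)`-element `x ≠ 1` of `N` lies in `U' N_σ` for every standard factorisation, and `U' ≠ 1`. -/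
def SigDec : Prop :=
  ∀ {G : Type u} [Group G] [Finite G], Cfsg.IsMinSimpleOddOrder G →
  ∀ (N : Subgroup G), IsCoatom N → ∀ x : G, x ∈ N → x ≠ 1 →
    (∀ q : ℕ, q.Prime → q ∣ orderOf x → q ∈ Cfsg.tau2 N) →
    ∀ K' U' : Subgroup G, Cfsg.IsSigmaDecomposition N K' U' →
      U' ≠ ⊥ ∧ x ∈ U' ⊔ Cfsg.sigmaCore N

/-- Abstract regularity: `N = (M ∩ N) S`, `S ⊴ N`, `N_G(M) = M`, `x ∈ M ∩ N`, `g ∈ N M`,
`x ∈ gMg⁻¹`: exactly one `r ∈ C_S(x)` has `rMr⁻¹ = gMg⁻¹`. -/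
def RegAbs : Prop :=
  ∀ {G : Type u} [Group G] (M S N : Subgroup G), Cfsg.IsComplIn (M ⊓ N) S N →
    N ≤ Subgroup.normalizer (S : Set G) → Subgroup.normalizer (M : Set G) = M →
    ∀ x ∈ M ⊓ N, ∀ g : G, (∃ c ∈ N, ∃ m ∈ M, g = c * m) →
    x ∈ M.map (MulAut.conj g).toMonoidHom →
    ∃! r : G, r ∈ S ⊓ Subgroup.centralizer ({x} : Set G) ∧
      M.map (MulAut.conj r).toMonoidHom = M.map (MulAut.conj g).toMonoidHom

/-- REG (BG 14.4 = S1374 in a form naming `R`). -/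
def Reg : Prop :=
  ∀ {G : Type u} [Group G] [Finite G], Cfsg.IsMinSimpleOddOrder G →
  ∀ (M : Subgroup G), IsCoatom M → ∀ x : G, x ∈ Cfsg.sigmaCore M → x ≠ 1 →
  ∃ R : Subgroup G,
    ((Subgroup.centralizer ({x} : Set G) ≤ M ∧ R = ⊥) ∨
      (¬ Subgroup.centralizer ({x} : Set G) ≤ M ∧ ∃ N : Subgroup G, IsCoatom N ∧
        Subgroup.centralizer ({x} : Set G) ≤ N ∧
        R = Cfsg.sigmaCore N ⊓ Subgroup.centralizer ({x} : Set G))) ∧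
    (Nat.card ↥(M ⊓ Subgroup.centralizer ({x} : Set G))).Coprime
      ((M ⊓ Subgroup.centralizer ({x} : Set G)).relIndex (Subgroup.centralizer ({x} : Set G))) ∧
    Subgroup.centralizer ({x} : Set G) ≤ Subgroup.normalizer (R : Set G) ∧
    Cfsg.IsComplIn (M ⊓ Subgroup.centralizer ({x} : Set G)) R (Subgroup.centralizer ({x} : Set G)) ∧
    ∀ g : G, x ∈ M.map (MulAut.conj g).toMonoidHom →
      ∃! r : G, r ∈ R ∧ M.map (MulAut.conj r).toMonoidHom = M.map (MulAut.conj g).toMonoidHom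

/-- The value of `R(x) = supportR M x` for `x ∈ M_σ`, `x ≠ 1`. -/
def SuppEq : Prop :=
  ∀ {G : Type u} [Group G] [Finite G], Cfsg.IsMinSimpleOddOrder G →
  ∀ (M : Subgroup G), IsCoatom M → ∀ x : G, x ∈ Cfsg.sigmaCore M → x ≠ 1 →
    (Subgroup.centralizer ({x} : Set G) ≤ M → Cfsg.supportR M x = ⊥) ∧
    (¬ Subgroup.centralizer ({x} : Set G) ≤ M → ∀ N : Subgroup G, IsCoatom N →
      Subgroup.centralizer ({x} : Set G) ≤ N →
      Cfsg.supportR M x = Cfsg.sigmaCore N ⊓ Subgroup.centralizer ({x} : Set G))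

/-- Conjugation equivariance of `R(x)`. -/
def SuppConj : Prop :=
  ∀ {G : Type u} [Group G] [Finite G], Cfsg.IsMinSimpleOddOrder G →
  ∀ (M : Subgroup G), IsCoatom M → ∀ x : G, x ∈ Cfsg.sigmaCore M → x ≠ 1 → ∀ y : G,
    y * x * y⁻¹ ∈ Cfsg.sigmaCore (M.map (MulAut.conj y).toMonoidHom) ∧
    Cfsg.supportR (M.map (MulAut.conj y).toMonoidHom) (y * x * y⁻¹) =
      (Cfsg.supportR M x).map (MulAut.conj y).toMonoidHom

/-- S1433. -/
def Disj : Prop :=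
  ∀ {G : Type u} [Group G] [Finite G], Cfsg.IsMinSimpleOddOrder G →
  ∀ (M N : Subgroup G), IsCoatom M → IsCoatom N → ∀ x y : G, x ∈ Cfsg.sigmaCore M →
    y ∈ Cfsg.sigmaCore N → x ≠ 1 → y ≠ 1 → x ≠ y →
    ∀ r ∈ Cfsg.supportR M x, ∀ s ∈ Cfsg.supportR N y, x * r ≠ y * s

/-- S1377. -/
def Count : Prop :=
  ∀ {G : Type u} [Group G] [Finite G], Cfsg.IsMinSimpleOddOrder G →
  ∀ (M : Subgroup G), IsCoatom M →
    Set.ncard (Cfsg.tildeOf M ((Cfsg.sigmaCore M : Set G) \ {1})) =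
      (Nat.card (Cfsg.sigmaCore M) - 1) * M.index

end Cfsg.Agent.Lib.Helper73.BG14Stmt
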