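import Mathlib
import Cfsg.Agent.Lib.Helper41.TMTwoStmt
import Cfsg.Agent.Lib.Helper45.OrthCard
import Cfsg.Agent.Lib.Helper34.CWCore

/-!
# S5987 / TM2TSBIG (helper41's call): every subspace contains a large totally singular subspace

`extend`: abstract extension lemma (finite field, `2 ≠ 0`): subspaces `U`, `A` with
`2 finrank U + 3 ≤ finrank A` have a singular `v ∈ A`, `v ∉ U`, orthogonal to `U`
(no hypothesis on `U` needed; with `A = ⊤` this is the TSEXT step).
`big`: hence some totally singular `U ≤ A` has `finrank A ≤ 2 finrank U + 2`.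
`main : TsBig`.
-/

set_option autoImplicit false

universe u

namespace Cfsg.Agent.Lib.Helper73.TM2TSBIG

open Module QuadraticMap

variable {F : Type u} [Field F] {V : Type u} [AddCommGroup V] [Module F V]

/-- extension of a totally singular subspace inside `A` -/
theorem extend [Fintype F] [FiniteDimensional F V] (h2 : (2 : F) ≠ 0) (Q : QuadraticForm F V)
    (A U : Submodule F V) (hfin : 2 * finrank F U + 3 ≤ finrank F A) :
    ∃ v ∈ A, v ∉ U ∧ Q v = 0 ∧ ∀ u ∈ U, polar Q u v = 0 := by
  classical
  obtain ⟨p, hp⟩ := CharP.exists F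
  have : Fact p.Prime := ⟨CharP.char_is_prime F p⟩
  -- the map `v ↦ polar Q v ·` restricted to `U`
  let ψ : V →ₗ[F] (U →ₗ[F] F) := (polarBilin Q).compl₂ U.subtype
  have hψ : ∀ (v : V) (u : U), ψ v u = polar Q v (u : V) := fun v u => rfl
  let K : Submodule F V := LinearMap.ker ψ
  have hK : ∀ v, v ∈ K ↔ ∀ u ∈ U, polar Q v u = 0 := by
    intro v
    constructor
    · intro hv u hu
      have h0 : ψ v = 0 := LinearMap.mem_ker.mp hv
      have := hψ v ⟨u, hu⟩
      rw [h0] at this
      exact this.symm
    · intro hv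
      apply LinearMap.mem_ker.mpr
      ext u
      rw [hψ]
      exact hv u u.2
  have h1 := Submodule.finrank_sup_add_finrank_inf_eq A K
  have h2' := LinearMap.finrank_range_add_finrank_ker ψ
  have h3 : finrank F (LinearMap.range ψ) ≤ finrank F U := by
    have := Submodule.finrank_le (LinearMap.range ψ)
    have hd : finrank F (U →ₗ[F] F) = finrank F U := Subspace.dual_finrank_eq
    omega
  have h4 : finrank F (A ⊔ K : Submodule F V) ≤ finrank F V := Submodule.finrank_le _
  -- complement of `U`
  obtain ⟨C0, hC0⟩ := Submodule.exists_isCompl U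
  have h5 := Submodule.finrank_add_eq_of_isCompl hC0
  have h6 := Submodule.finrank_sup_add_finrank_inf_eq C0 (A ⊓ K)
  have h7 : finrank F (C0 ⊔ (A ⊓ K) : Submodule F V) ≤ finrank F V := Submodule.finrank_le _
  have h8 : 2 * 1 < finrank F (C0 ⊓ (A ⊓ K) : Submodule F V) := by
    have h9 : finrank F (LinearMap.ker ψ) = finrank F K := rfl
    omega
  obtain ⟨w, hwC, hw0, hw⟩ :=
    Cfsg.Agent.Lib.Helper34.CWCore.exists_cw p (fun _ => polarBilin Q) 1 _ h8
  have hww : polar Q w w = 0 := hw 0 (by norm_num)
  have hQw : Q w = 0 := by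
    rw [polar_self] at hww
    have h3' : (2 : F) = 0 ∨ Q w = 0 := by simpa [smul_eq_mul] using hww
    rcases h3' with h | h
    · exact absurd h h2
    · exact h
  refine ⟨w, hwC.2.1, ?_, hQw, ?_⟩
  · intro hwU
    apply hw0
    have : w ∈ U ⊓ C0 := ⟨hwU, hwC.1⟩
    rw [hC0.inf_eq_bot] at this
    exact (Submodule.mem_bot F).mp this
  · intro u hu
    rw [polar_comm]
    exact (hK w).mp hwC.2.2 u hu

/-- every subspace contains a totally singular subspace of nearly half its dimension -/
theorem big [Fintype F] [FiniteDimensional F V] (h2 : (2 : F) ≠ 0) (Q : QuadraticForm F V)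
    (A : Submodule F V) :
    ∃ U : Submodule F V, U ≤ A ∧ (∀ u ∈ U, Q u = 0) ∧ finrank F A ≤ 2 * finrank F U + 2 := by
  have key : ∀ n : ℕ, ∀ U : Submodule F V, U ≤ A → (∀ u ∈ U, Q u = 0) →
      finrank F A - finrank F U = n →
      ∃ U' : Submodule F V, U' ≤ A ∧ (∀ u ∈ U', Q u = 0) ∧
        finrank F A ≤ 2 * finrank F U' + 2 := by
    intro n
    induction n using Nat.strong_induction_on with
    | _ n ih =>
      intro U hUA hU hn
      by_cases hle : finrank F A ≤ 2 * finrank F U + 2
      · exact ⟨U, hUA, hU, hle⟩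
      · obtain ⟨v, hvA, hvU, hQv, hpol⟩ := extend h2 Q A U (by omega)
        have hU'A : U ⊔ Submodule.span F {v} ≤ A :=
          sup_le hUA ((Submodule.span_singleton_le_iff_mem v A).mpr hvA)
        have hlt : U < U ⊔ Submodule.span F {v} := by
          refine lt_of_le_of_ne le_sup_left ?_
          intro he
          apply hvU
          rw [he]
          exact Submodule.mem_sup_right (Submodule.mem_span_singleton_self v)
        have hfr := Submodule.finrank_lt_finrank_of_lt hlt
        have hfr2 := Submodule.finrank_mono hU'A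
        have hUfr := Submodule.finrank_mono hUA
        refine ih (finrank F A - finrank F (U ⊔ Submodule.span F {v} : Submodule F V))
          (by omega) (U ⊔ Submodule.span F {v}) hU'A ?_ rfl
        intro x hx
        obtain ⟨u, hu, y, hy, rfl⟩ := Submodule.mem_sup.mp hx
        obtain ⟨c, rfl⟩ := Submodule.mem_span_singleton.mp hy
        have hadd : Q (u + c • v) = Q u + Q (c • v) + polar Q u (c • v) := by
          unfold polar; ring
        rw [hadd, hU u hu, QuadraticMap.map_smul, hQv, polar_smul_right, hpol u hu]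
        simp
  exact key _ ⊥ bot_le (fun u hu => by rw [(Submodule.mem_bot F).mp hu, map_zero]) rfl

open Cfsg.Agent.Lib.Helper41.TMTwoStmt in
theorem main : TsBig.{u} := by
  intro F _ _ hodd d a b A
  have h2 : (2 : F) ≠ 0 := by
    intro h
    have hc : ringChar F = 2 := by
      have : ringChar F ∣ 2 := by
        have h' : ((2 : ℕ) : F) = 0 := by exact_mod_cast h
        exact (ringChar.spec F 2).mp h'
      rcases (Nat.dvd_prime Nat.prime_two).mp this with h1 | h1
      · exact absurd h1 (CharP.ringChar_ne_one)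
      · exact h1
    have hev : Even (Fintype.card F) :=
      Nat.even_iff.mpr (FiniteField.even_card_of_char_two hc)
    exact (Nat.not_even_iff_odd.mpr hodd) hev
  obtain ⟨U, hUA, hU, hfr⟩ := big h2 (Cfsg.Agent.Lib.Helper45.OrthCard.QM (d - 1) a b) A
  refine ⟨U, hUA, ?_, hfr⟩
  intro w hw
  have := hU w hw
  rwa [Cfsg.Agent.Lib.Helper45.OrthCard.QM_apply] at this

end Cfsg.Agent.Lib.Helper73.TM2TSBIG
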