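import Mathlib
import Cfsg.Agent.Lib.Helper40.HPStmt
import Cfsg.Agent.Lib.Helper66.OPINVOLP
import Cfsg.Agent.Lib.Helper77.OPTOPNDP
import Cfsg.Agent.Lib.Helper8.HypHYPSUB

/-!
# S5974 / INVOLH (helper40's call)

`q` odd: an isometry of the plus form with `x * x = 1` fixes a hyperbolic `m`-space
(`m` even, `2 ≤ m < d`).  `hyp_in`: a nondegenerate subspace of finrank `> 2 h` contains a
hyperbolic `2 h`-space (all `q`; from `Helper8.HypHYPSUB.core` with `E = ⊥`).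
-/

set_option autoImplicit false

universe u

open scoped Matrix

namespace Cfsg.Agent.Lib.Helper73.HPINVOLH

open Module QuadraticMap
open Cfsg.Agent.Lib.Helper44.QSpace Cfsg.Agent.Lib.Helper44.NegPairs
open Cfsg.Agent.Lib.Helper44.WittND
open Cfsg.Agent.Lib.Helper94.OPStmt
open Cfsg.Agent.Lib.Helper40.HPStmt
open Cfsg.Agent.Lib.Helper8.HypHYPSUB (inlMap inlMap_inj plusQ_inlMap isom_polar isom_inj)

/-- a nondegenerate subspace of finrank `> 2 h` (`h ≥ 1`) contains a hyperbolic `2 h`-space -/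
theorem hyp_in {F : Type u} [Field F] [Fintype F] (d h : ℕ) (hh : 0 < h)
    (A : Submodule F (P d → F)) (hA : NDegP d F A) (hfr : 2 * h < finrank F A) :
    ∃ W : Submodule F (P d → F), W ≤ A ∧ HypJ d F (2 * h) W := by
  classical
  have hA' : NDsub (plusQ d F) A := by
    intro x hx hxy
    by_contra hx0
    obtain ⟨-, y, hy, hxy'⟩ := hA x hx hx0
    exact hxy' (hxy y hy)
  have hbot : NDsub (plusQ d F) (⊥ : Submodule F (P d → F)) := by
    intro x hx _
    exact (Submodule.mem_bot F).mp hx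
  obtain ⟨W₁, Φ, hW₁, hΦ, hr⟩ := Cfsg.Agent.Lib.Helper8.HypHYPSUB.core (plusQ d F) ⊥ A hbot hA'
    (fun u hu v _ => by
      rw [(Submodule.mem_bot F).mp hu]
      exact polar_zero_left (plusQ d F) v) 0 h (by rw [finrank_bot]) hh (by omega)
  rw [bot_sup_eq] at hr
  have hinj := isom_inj (sep_plusQ h) Φ hΦ
  have hfH : finrank F (Fin h ⊕ Fin h → F) = 2 * h := by
    rw [Module.finrank_fintype_fun_eq_card, Fintype.card_sum, Fintype.card_fin]
    ring
  refine ⟨W₁, hW₁, ?_, ?_, ?_⟩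
  · rw [← hr, LinearMap.finrank_range_of_inj hinj, hfH]
  · intro w hw hw0
    rw [← hr] at hw
    obtain ⟨z, rfl⟩ := hw
    have hz : z ≠ 0 := by
      rintro rfl
      exact hw0 (map_zero _)
    have hex : ∃ y, polar (plusQ h F) z y ≠ 0 := by
      by_contra hc
      push Not at hc
      exact hz (sep_plusQ h z hc)
    obtain ⟨y, hy⟩ := hex
    have hpol : polar (plusQ d F) (Φ z) (Φ y) = polar (plusQ h F) z y := isom_polar Φ hΦ z y
    refine ⟨Φ y, by rw [← hr]; exact ⟨y, rfl⟩, ?_⟩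
    show polar (plusQ d F) (Φ z) (Φ y) ≠ 0
    rw [hpol]
    exact hy
  · refine ⟨LinearMap.range (Φ ∘ₗ inlMap h), ?_, ?_, ?_⟩
    · rw [← hr]
      rintro _ ⟨a, rfl⟩
      exact ⟨inlMap h a, rfl⟩
    · have hinj2 : Function.Injective (Φ ∘ₗ inlMap h) := by
        rw [LinearMap.coe_comp]
        exact hinj.comp (inlMap_inj h)
      rw [LinearMap.finrank_range_of_inj hinj2, Module.finrank_fintype_fun_eq_card,
        Fintype.card_fin]
    · rintro _ ⟨a, rfl⟩
      show plusQ d F (Φ (inlMap h a)) = 0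
      rw [hΦ, plusQ_inlMap]

theorem main : InvolH.{u} := by
  intro F _ _ hodd d m hd hm2 hme hmd x hx hx2M
  obtain ⟨hnd₁, hnd₂, hdim⟩ := Cfsg.Agent.Lib.Helper66.OPINVOLP.dec
    Cfsg.Agent.Lib.Helper77.OPTOPNDP.main F hodd d x hx hx2M
  obtain ⟨h, rfl⟩ : ∃ h, m = 2 * h := by
    obtain ⟨h, hh⟩ := hme
    exact ⟨h, by omega⟩
  have hh : 0 < h := by omega
  have hcase : 2 * h < finrank F ↥(FxP (x : Matrix (P d) (P d) F)) ∨
      2 * h < finrank F ↥(Cfsg.Agent.Lib.Helper66.OPINVOLP.FmP (x : Matrix (P d) (P d) F)) := by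
    omega
  rcases hcase with h' | h'
  · obtain ⟨W, hWA, hW⟩ := hyp_in d h hh _ hnd₁ h'
    refine ⟨W, hW, ?_⟩
    rintro _ ⟨w, hw, rfl⟩
    rw [Matrix.toLin'_apply, (mem_FxP _ w).mp (hWA hw)]
    exact hw
  · obtain ⟨W, hWA, hW⟩ := hyp_in d h hh _ hnd₂ h'
    refine ⟨W, hW, ?_⟩
    rintro _ ⟨w, hw, rfl⟩
    rw [Matrix.toLin'_apply, (Cfsg.Agent.Lib.Helper66.OPINVOLP.mem_FmP _ w).mp (hWA hw)]
    exact Submodule.neg_mem _ hw

end Cfsg.Agent.Lib.Helper73.HPINVOLH
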