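import Mathlib
import Cfsg.Agent.Lib.Helper17.CentFix
import Cfsg.Agent.Lib.Helper17.FixCount
import Cfsg.Agent.Lib.Helper69.J1Stmt

/-!
helper73: piece [O15960] of S4274: no simple group of order `15960 = 2^3 * 3 * 5 * 7 * 19`.
-/

set_option autoImplicit false

namespace Cfsg.Agent.Lib.Helper73.J1O15960

open Subgroup MulAction
open Cfsg.Agent.Lib.Helper17.Sylow Cfsg.Agent.Lib.Helper17.Sylow2
open Cfsg.Agent.Lib.Helper17.CentFix Cfsg.Agent.Lib.Helper17.Commuting
open Cfsg.Agent.Lib.Helper17.FixCount

universe u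

theorem key19 : ∀ n ∈ Nat.divisors 840, n % 19 = 1 → n ≠ 1 → n = 20 ∨ n = 210 := by
  decide +kernel

theorem keyr18 : ∀ r ∈ Nat.divisors 18, r = 1 ∨ r = 2 ∨ r = 3 ∨ r = 6 ∨ r = 9 ∨ r = 18 := by
  decide

theorem keyF : ∀ F : ℕ, F < 210 → F % 19 = 1 → F % 4 = 2 → F = 58 ∨ F = 134 := by
  intro F h1 h2 h3
  omega

theorem keyc : ∀ c ∈ Nat.divisors 15960, 38 ∣ c → ∀ k ∈ Finset.range 58,
    (76 * 58 = c * k ∨ 76 * 134 = c * k) → c = 152 := by
  decide +kernel

theorem no_simple {G : Type u} [Group G] [Finite G] [IsSimpleGroup G] :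
    Nat.card G ≠ 15960 := by
  intro h
  have hG : ¬ IsMulCommutative G := not_comm_of_not_prime (by rw [h]; norm_num)
  have : Fact (Nat.Prime 19) := ⟨by norm_num⟩
  have : Fact (Nat.Prime 7) := ⟨by norm_num⟩
  have : Fact (Nat.Prime 2) := ⟨by norm_num⟩
  have h19 : 19 ∣ Nat.card G := by rw [h]; norm_num
  have hd : Nat.card (Sylow 19 G) ∣ 840 :=
    card_sylow_dvd (k := 1) (h.trans (by norm_num)) (by norm_num)
  have hm := card_sylow_mod (G := G) 19
  have hne := card_sylow_ne_one hG h19
  obtain ⟨P⟩ : Nonempty (Sylow 19 G) := inferInstance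
  have hP : Nat.card (P : Subgroup G) = 19 := by
    simpa using card_sylow_subgroup (k := 1) (m := 840) (h.trans (by norm_num)) (by norm_num) P
  have hNn := card_normalizer_mul_card_sylow P
  rw [h] at hNn
  have hidx : (normalizer ((P : Subgroup G) : Set G)).index = Nat.card (Sylow 19 G) :=
    (P.card_eq_index_normalizer).symm
  obtain ⟨r, hr1, hr18, hCr, hC19⟩ := sylow_prime_centralizer hG P hP
  have hr := keyr18 r (Nat.mem_divisors.mpr ⟨hr18, by norm_num⟩)
  rcases key19 _ (Nat.mem_divisors.mpr ⟨hd, by norm_num⟩) hm hne with hn | hn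
  · -- n19 = 20
    rw [hn] at hNn
    have hC7 : 7 ∣ Nat.card (centralizer ((P : Subgroup G) : Set G)) := by
      rcases hr with rfl | rfl | rfl | rfl | rfl | rfl <;> omega
    obtain ⟨w, hwC, hw⟩ :=
      exists_mem_orderOf_eq_prime (centralizer ((P : Subgroup G) : Set G)) 7 hC7
    have h1 := card_fixedBy_mod_of_mem_centralizer P hP w hwC
    have hw7 : w ^ (7 ^ 1) = 1 := by rw [pow_one, ← hw]; exact pow_orderOf_eq_one w
    have h2 := card_modEq_card_fixedBy
      (X := G ⧸ normalizer ((P : Subgroup G) : Set G)) w hw7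
    have hw1 : w ≠ 1 := by
      rintro rfl
      rw [orderOf_one] at hw
      omega
    have h3 := card_fixedBy_lt_index _ (normalizer_sylow_ne_top hG h19 P) w hw1
    have hX : Nat.card (G ⧸ normalizer ((P : Subgroup G) : Set G)) = 20 := hidx.trans hn
    rw [hidx, hn] at h3
    rw [hX, Nat.ModEq] at h2
    omega
  · -- n19 = 210
    rw [hn] at hNn
    have hr2 : r = 2 := by
      rcases hr with rfl | rfl | rfl | rfl | rfl | rfl <;> omega
    subst hr2
    have hC38 : Nat.card (centralizer ((P : Subgroup G) : Set G)) = 38 := by omega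
    have hN76 : Nat.card (normalizer ((P : Subgroup G) : Set G)) = 76 := by omega
    obtain ⟨t, htC, ht⟩ := exists_mem_orderOf_eq_prime
      (centralizer ((P : Subgroup G) : Set G)) 2 (by rw [hC38]; norm_num)
    obtain ⟨k0, hf1, hf2, hf3⟩ := involution_fix_data hG P hP t ht htC
    rw [hidx, hn] at hf2 hf3
    have hFk := keyF _ hf3 hf1 (by omega)
    have h4 := card_mul_card_fixedBy (normalizer ((P : Subgroup G) : Set G)) t
    rw [hN76] at h4
    have ht1 : t ≠ 1 := by
      rintro rfl
      rw [orderOf_one] at ht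
      omega
    have ht2 : t ^ 2 = 1 := by rw [← ht]; exact pow_orderOf_eq_one t
    -- 38 divides |C_G(t)|
    have hPle : (P : Subgroup G) ≤ centralizer ({t} : Set G) := by
      intro x hx
      rw [mem_centralizer_singleton_iff]
      exact (mem_centralizer_iff.mp htC) x hx
    have htmem : t ∈ centralizer ({t} : Set G) := by
      rw [mem_centralizer_singleton_iff]
    have hc19 : 19 ∣ Nat.card (centralizer ({t} : Set G)) := by
      have := Subgroup.card_dvd_of_le hPle
      rwa [hP] at this
    have hc2 : 2 ∣ Nat.card (centralizer ({t} : Set G)) := by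
      have := orderOf_dvd_card_of_mem htmem
      rwa [ht] at this
    have hc38 : 38 ∣ Nat.card (centralizer ({t} : Set G)) :=
      (by norm_num : Nat.Coprime 2 19).mul_dvd_of_dvd_of_dvd hc2 hc19
    have hcd : Nat.card (centralizer ({t} : Set G)) ∣ 15960 :=
      h ▸ (centralizer ({t} : Set G)).card_subgroup_dvd_card
    -- the number of conjugates of t in N(P) is at most 57
    have hk57 : {s : G | s ∈ normalizer ((P : Subgroup G) : Set G) ∧
        ∃ g : G, g * t * g⁻¹ = s}.ncard ≤ 57 := by
      have hsub : {s : G | s ∈ normalizer ((P : Subgroup G) : Set G) ∧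
          ∃ g : G, g * t * g⁻¹ = s} ⊆
          ((normalizer ((P : Subgroup G) : Set G) : Subgroup G) : Set G) \
            ((P : Subgroup G) : Set G) := by
        rintro s ⟨hsN, g, rfl⟩
        refine ⟨hsN, ?_⟩
        intro hsP
        have h5 : orderOf (g * t * g⁻¹) ∣ 19 := by
          have := orderOf_dvd_card_of_mem hsP
          rwa [hP] at this
        have h6 : orderOf (g * t * g⁻¹) ∣ 2 := by
          apply orderOf_dvd_of_pow_eq_one
          rw [conj_pow, ht2]
          group
        have h7 : orderOf (g * t * g⁻¹) ∣ Nat.gcd 19 2 := Nat.dvd_gcd h5 h6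
        have h8 : g * t * g⁻¹ = 1 := by
          rw [← orderOf_eq_one_iff]
          exact Nat.dvd_one.mp (by simpa using h7)
        apply ht1
        have : t = g⁻¹ * (g * t * g⁻¹) * g := by group
        rw [this, h8]
        group
      have h9 := Set.ncard_le_ncard hsub (Set.toFinite _)
      have hPN : ((P : Subgroup G) : Set G) ⊆
          ((normalizer ((P : Subgroup G) : Set G) : Subgroup G) : Set G) :=
        fun x hx => Subgroup.le_normalizer hx
      rw [Set.ncard_diff hPN (Set.toFinite _)] at h9
      have e1 : ((normalizer ((P : Subgroup G) : Set G) : Subgroup G) : Set G).ncard = 76 :=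
        (Nat.card_coe_set_eq _).symm.trans hN76
      have e2 : ((P : Subgroup G) : Set G).ncard = 19 :=
        (Nat.card_coe_set_eq _).symm.trans hP
      rw [e1, e2] at h9
      exact h9
    generalize hF : Nat.card (fixedBy (G ⧸ normalizer ((P : Subgroup G) : Set G)) t) = F
      at hf1 hf2 hf3 h4 hFk
    generalize hk : {s : G | s ∈ normalizer ((P : Subgroup G) : Set G) ∧
      ∃ g : G, g * t * g⁻¹ = s}.ncard = k at h4 hk57
    have hK : Nat.card (centralizer ({t} : Set G)) = 152 := by
      apply keyc _ (Nat.mem_divisors.mpr ⟨hcd, by norm_num⟩) hc38 k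
        (Finset.mem_range.mpr (by omega))
      rcases hFk with rfl | rfl
      · left; exact h4
      · right; exact h4
    -- the Sylow 19-subgroup of C_G(t) is normal
    have hdK : Nat.card (Sylow 19 ↥(centralizer ({t} : Set G))) ∣ 8 :=
      card_sylow_dvd (G := ↥(centralizer ({t} : Set G))) (p := 19) (k := 1) (m := 8)
        (hK.trans (by norm_num)) (by norm_num)
    have hmK := card_sylow_mod (G := ↥(centralizer ({t} : Set G))) 19
    have hle8 := Nat.le_of_dvd (by norm_num) hdK
    have hone : Nat.card (Sylow 19 ↥(centralizer ({t} : Set G))) = 1 := by omega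
    have hsubs : Subsingleton (Sylow 19 ↥(centralizer ({t} : Set G))) :=
      Finite.card_le_one_iff_subsingleton.mp hone.le
    have hPp : IsPGroup 19 ((P : Subgroup G).subgroupOf (centralizer ({t} : Set G))) := by
      apply IsPGroup.of_card (n := 1)
      rw [pow_one]
      exact (Nat.card_congr (Subgroup.subgroupOfEquivOfLe hPle).toEquiv).trans hP
    obtain ⟨Q, hQ⟩ := hPp.exists_le_sylow
    have hQn : (Q : Subgroup ↥(centralizer ({t} : Set G))).Normal := Sylow.normal_of_subsingleton Q
    have hQc : Nat.card (Q : Subgroup ↥(centralizer ({t} : Set G))) = 19 := by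
      simpa using card_sylow_subgroup (G := ↥(centralizer ({t} : Set G))) (k := 1) (m := 8)
        (hK.trans (by norm_num)) (by norm_num) Q
    have hPQ : (P : Subgroup G).subgroupOf (centralizer ({t} : Set G)) = Q := by
      apply Subgroup.eq_of_le_of_card_ge hQ
      rw [hQc]
      exact ((Nat.card_congr (Subgroup.subgroupOfEquivOfLe hPle).toEquiv).trans hP).ge
    have hnorm : ((P : Subgroup G).subgroupOf (centralizer ({t} : Set G))).Normal := by
      rw [hPQ]; exact hQn
    have hKN : centralizer ({t} : Set G) ≤ normalizer ((P : Subgroup G) : Set G) :=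
      (Subgroup.normal_subgroupOf_iff_le_normalizer hPle).mp hnorm
    have := Subgroup.card_dvd_of_le hKN
    rw [hK, hN76] at this
    omega

theorem main : Cfsg.Agent.Lib.Helper69.J1Stmt.O15960.{u} := by
  intro G _ _ _
  exact no_simple

end Cfsg.Agent.Lib.Helper73.J1O15960
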