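import Mathlib

set_option autoImplicit false

/-!
helper73: a pure averaging lemma for S1431.  `K` acts on `S` normalizing `D ≤ S` with `S/D`
abelian, and fixes `x ∈ S` with `x ^ |K| ∉ D`.  Then the kernel `T` of
`m ↦ ∏_{k ∈ K} (k m k⁻¹) D` contains `D` and all `k m k⁻¹ m⁻¹`, but not `x`.
-/

namespace Cfsg.Agent.Lib.Helper73.S31Avg

universe u

theorem avg {G : Type u} [Group G] [Finite G] (S K D : Subgroup G) (hDS : D ≤ S)
    (hKS : ∀ k ∈ K, ∀ m ∈ S, k * m * k⁻¹ ∈ S) (hKD : ∀ k ∈ K, ∀ m ∈ D, k * m * k⁻¹ ∈ D)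
    (hcomm : ∀ a ∈ S, ∀ b ∈ S, a * b * a⁻¹ * b⁻¹ ∈ D) (x : G) (hxS : x ∈ S)
    (hxK : ∀ k ∈ K, k * x = x * k) (hx : x ^ Nat.card K ∉ D) :
    ∃ T : Subgroup G, T ≤ S ∧ D ≤ T ∧ x ∉ T ∧ ∀ m ∈ S, ∀ k ∈ K, k * m * k⁻¹ * m⁻¹ ∈ T := by
  classical
  haveI : Fintype ↥K := Fintype.ofFinite _
  have hcomD0 : commutator ↥S ≤ D.subgroupOf S := by
    rw [commutator_def, Subgroup.commutator_le]
    intro a _ b _
    rw [Subgroup.mem_subgroupOf]
    have h1 := hcomm a a.2 b b.2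
    simpa [commutatorElement_def] using h1
  let q : ↥S →* Abelianization ↥S ⧸ ((D.subgroupOf S).map Abelianization.of) :=
    (QuotientGroup.mk' ((D.subgroupOf S).map Abelianization.of)).comp Abelianization.of
  have hq : ∀ m : ↥S, q m = 1 ↔ (m : G) ∈ D := by
    intro m
    constructor
    · intro h
      have h1 : Abelianization.of m ∈ (D.subgroupOf S).map Abelianization.of :=
        (QuotientGroup.eq_one_iff _).mp h
      obtain ⟨d, hd, hdm⟩ := Subgroup.mem_map.mp h1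
      have h2 : d⁻¹ * m ∈ (Abelianization.of : ↥S →* Abelianization ↥S).ker := by
        rw [MonoidHom.mem_ker, map_mul, map_inv, hdm, inv_mul_cancel]
      rw [Abelianization.ker_of] at h2
      have h3 : d⁻¹ * m ∈ D.subgroupOf S := hcomD0 h2
      have h4 : m ∈ D.subgroupOf S := by
        have h5 := (D.subgroupOf S).mul_mem hd h3
        rwa [mul_inv_cancel_left] at h5
      exact Subgroup.mem_subgroupOf.mp h4
    · intro h
      apply (QuotientGroup.eq_one_iff _).mpr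
      exact Subgroup.mem_map_of_mem _ (Subgroup.mem_subgroupOf.mpr h)
  let c : ↥K → (↥S →* ↥S) := fun k =>
    { toFun := fun s => ⟨(k : G) * s * (k : G)⁻¹, hKS k k.2 s s.2⟩
      map_one' := Subtype.ext (by simp)
      map_mul' := fun a b => Subtype.ext (by simp [mul_assoc]) }
  have hc : ∀ (k : ↥K) (s : ↥S), ((c k s : ↥S) : G) = (k : G) * s * (k : G)⁻¹ := fun _ _ => rfl
  let τ : ↥S →* Abelianization ↥S ⧸ ((D.subgroupOf S).map Abelianization.of) :=
    ∏ k : ↥K, q.comp (c k)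
  have hτ : ∀ m : ↥S, τ m = ∏ k : ↥K, q (c k m) := by
    intro m
    simp [τ, MonoidHom.finset_prod_apply]
  refine ⟨τ.ker.map S.subtype, ?_, ?_, ?_, ?_⟩
  · rintro _ ⟨m, -, rfl⟩
    exact m.2
  · intro d hd
    refine ⟨⟨d, hDS hd⟩, ?_, rfl⟩
    rw [SetLike.mem_coe, MonoidHom.mem_ker, hτ]
    apply Finset.prod_eq_one
    intro k _
    rw [hq, hc]
    exact hKD k k.2 d hd
  · rintro ⟨m, hm, hmx⟩
    have hm' : m = ⟨x, hxS⟩ := Subtype.ext hmx
    rw [SetLike.mem_coe, MonoidHom.mem_ker, hτ, hm'] at hm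
    have h1 : ∀ k : ↥K, q (c k ⟨x, hxS⟩) = q ⟨x, hxS⟩ := by
      intro k
      congr 1
      apply Subtype.ext
      rw [hc]
      show (k : G) * x * (k : G)⁻¹ = x
      rw [hxK k k.2, mul_inv_cancel_right]
    rw [Finset.prod_congr rfl (fun k _ => h1 k), Finset.prod_const, Finset.card_univ,
      ← map_pow, hq] at hm
    apply hx
    rw [Nat.card_eq_fintype_card]
    simpa using hm
  · intro m hm k hk
    refine ⟨⟨k * m * k⁻¹ * m⁻¹, S.mul_mem (hKS k hk m hm) (S.inv_mem hm)⟩, ?_, rfl⟩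
    rw [SetLike.mem_coe, MonoidHom.mem_ker]
    have h1 : (⟨k * m * k⁻¹ * m⁻¹, S.mul_mem (hKS k hk m hm) (S.inv_mem hm)⟩ : ↥S)
        = c ⟨k, hk⟩ ⟨m, hm⟩ * (⟨m, hm⟩ : ↥S)⁻¹ := Subtype.ext rfl
    rw [h1, map_mul, map_inv, mul_inv_eq_one, hτ, hτ]
    apply Fintype.prod_equiv (Equiv.mulRight (⟨k, hk⟩ : ↥K))
    intro j
    congr 1
    apply Subtype.ext
    rw [hc, hc, hc]
    simp [mul_assoc]

end Cfsg.Agent.Lib.Helper73.S31Avg
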