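import Mathlib
import Cfsg.Agent.Lib.Helper41.TMStmt
import Cfsg.Agent.Lib.Helper44.NegPairs
import Cfsg.Agent.Lib.Helper44.Inv8

/-!
# S5987 / TOP (helper41's call): the standard minus form is nondegenerate and not of plus type

`sep_minus_all`: `Sep (minusQ m F a b)` over a finite field in EVERY characteristic (anisotropic
binary part; in characteristic 2 anisotropy forces `a ≠ 0`).
`main : Top` (Witt index from `Helper44.Inv8.minus_ts_le`).
-/

set_option autoImplicit false

universe u

namespace Cfsg.Agent.Lib.Helper73.TMTOP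

open Module QuadraticMap
open Cfsg.Agent.Lib.Helper44.QSpace Cfsg.Agent.Lib.Helper44.NegPairs

/-- the minus form is nondegenerate in every characteristic -/
theorem sep_minus_all {F : Type u} [Field F] [Finite F] (m : ℕ) (a b : F)
    (hab : ∀ z₁ z₂ : F, z₁ ^ 2 + a * z₁ * z₂ + b * z₂ ^ 2 = 0 → z₁ = 0 ∧ z₂ = 0) :
    Sep (minusQ m F a b) := by
  cases nonempty_fintype F
  by_cases h2 : (2 : F) = 0
  · have : CharP F 2 := CharTwo.of_one_ne_zero_of_two_eq_zero one_ne_zero h2
    have ha : a ≠ 0 := by
      intro ha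
      obtain ⟨c, hc⟩ := FiniteField.isSquare_of_char_two (ringChar.eq F 2) b
      have h := hab c 1 (by rw [ha, hc]; linear_combination (c * c) * h2)
      exact one_ne_zero h.2
    apply sep_of_H1 (minusQ m F a b) Sum.inl (minus_H1 m a b)
    intro x hx k hk
    have h0 := hx (Pi.single (Sum.inr 0) 1)
    have h1 := hx (Pi.single (Sum.inr 1) 1)
    have e0 : polar (minusQ m F a b) x (Pi.single (Sum.inr 0) 1)
        = 2 * x (Sum.inr 0) + a * x (Sum.inr 1) := by
      show polar (Cfsg.quadFormMinus m F a b) x (Pi.single (Sum.inr 0) 1) = _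
      unfold polar Cfsg.quadFormMinus
      simp
      ring
    have e1 : polar (minusQ m F a b) x (Pi.single (Sum.inr 1) 1)
        = a * x (Sum.inr 0) + 2 * b * x (Sum.inr 1) := by
      show polar (Cfsg.quadFormMinus m F a b) x (Pi.single (Sum.inr 1) 1) = _
      unfold polar Cfsg.quadFormMinus
      simp
      ring
    rw [e0] at h0
    rw [e1] at h1
    have z1 : x (Sum.inr 1) = 0 := by
      have h3 : a * x (Sum.inr 1) = 0 := by linear_combination h0 - x (Sum.inr 0) * h2
      exact (mul_eq_zero.mp h3).resolve_left ha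
    have z0 : x (Sum.inr 0) = 0 := by
      have h3 : a * x (Sum.inr 0) = 0 := by linear_combination h1 - b * x (Sum.inr 1) * h2
      exact (mul_eq_zero.mp h3).resolve_left ha
    rcases k with c | t
    · exact absurd ⟨c, rfl⟩ hk
    · fin_cases t
      · exact z0
      · exact z1
  · exact sep_minusQ h2 m a b hab

open Cfsg.Agent.Lib.Helper41.TMStmt Cfsg.Agent.Lib.Helper45.OMiStmt
  Cfsg.Agent.Lib.Helper41.TMTwoStmt in
theorem main : Top.{u} := by
  intro F _ _ a₀ b₀ hab d
  have hS : Sep (minusQ (d - 1) F a₀ b₀) := sep_minus_all (d - 1) a₀ b₀ hab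
  constructor
  · intro w _ hw0
    have hex : ∃ y, polar (minusQ (d - 1) F a₀ b₀) w y ≠ 0 := by
      by_contra hcon
      push Not at hcon
      exact hw0 (hS w hcon)
    obtain ⟨y, hy⟩ := hex
    refine ⟨⟨y, Submodule.mem_top, ?_⟩, ⟨y, Submodule.mem_top, hy⟩⟩
    rw [polar_comm]
    exact hy
  · rintro ⟨U, -, hU, hfr⟩
    have h1 : finrank F U ≤ d - 1 :=
      Cfsg.Agent.Lib.Helper44.Inv8.minus_ts_le hS hab (W := U) hU
    have h2 : finrank F (⊤ : Submodule F (M d → F)) = 2 * (d - 1) + 2 := by
      rw [finrank_top, Module.finrank_pi]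
      simp [Fintype.card_sum]
      ring
    have h3 : 2 * finrank F U = 2 * (d - 1) + 2 := hfr.trans h2
    omega

end Cfsg.Agent.Lib.Helper73.TMTOP
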